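import Mathlib
import Cfsg.Agent.Lib.Helper14.ReflGen
import Cfsg.Agent.Lib.Helper44.ReflIndex

/-!
# Isometries with `x² = -1` of a nondegenerate quadratic space (odd characteristic), generic part

For a nondegenerate quadratic form `Q` on a finite-dimensional space `V` over a field with
`2 ≠ 0` and an isometry `x` with `x² = -1`:

* `XData.exists_sigma`: `V = W ⊕ xW` with `W ⊥ xW`, i.e. a self-adjoint involution `σ` with
  `σ x = - x σ` (and a vector `v` with `σ v = v`, `Q v ≠ 0`);
* `XData.exists_alpha` (finite field): for every `a` there is a self-adjoint `α` with `α² = a`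
  anticommuting with `x`, and vectors `u, u'` with `Q u' = a Q u ≠ 0`, such that the conjugates of
  `α` by the reflections `R_u`, `R_u' R_u`, `R_u'` still anticommute with `x`.

Generic in the form (used for the plus form in S5977; reusable for the minus form).
-/

set_option autoImplicit false

namespace Cfsg.Agent.Lib.Helper82.OFX

open Cfsg.Agent.Lib.Helper14

universe u v

section Generic

variable {F : Type u} [Field F] {V : Type v} [AddCommGroup V] [Module F V]

/-- `x` is an isometry of the nondegenerate form `Q` with `x² = -1`, and `2 ≠ 0`. -/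
structure XData (Q : QuadraticForm F V) (x : Module.End F V) : Prop where
  two : (2 : F) ≠ 0
  nd : (QuadraticMap.polarBilin Q).Nondegenerate
  iso : ∀ y, Q (x y) = Q y
  sq : ∀ y, x (x y) = -y

/-- conjugating a reflection by an isometry -/
theorem refl_conj (Q : QuadraticForm F V) (g : Module.End F V) (hg : ∀ y, Q (g y) = Q y) (y : V) :
    g * reflLin Q y = reflLin Q (g y) * g := by
  refine LinearMap.ext fun z => ?_
  have hp : QuadraticMap.polar (⇑Q) (g y) (g z) = QuadraticMap.polar (⇑Q) y z := by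
    unfold QuadraticMap.polar
    rw [← map_add, hg, hg, hg]
  rw [Module.End.mul_apply, Module.End.mul_apply, reflLin_apply, reflLin_apply, map_sub,
    map_smul, hg, hp]

theorem refl_comm (Q : QuadraticForm F V) {y z : V} (hy : Q y ≠ 0)
    (hyz : QuadraticMap.polar (⇑Q) y z = 0) :
    reflLin Q y * reflLin Q z = reflLin Q z * reflLin Q y := by
  have h := refl_conj Q (reflLin Q y) (fun w => reflLin_isometry Q hy w) z
  rw [reflLin_of_ortho Q hyz] at h
  exact h

theorem refl_neg (Q : QuadraticForm F V) (y : V) : reflLin Q (-y) = reflLin Q y := by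
  refine LinearMap.ext fun z => ?_
  rw [reflLin_apply, reflLin_apply, QuadraticMap.map_neg, QuadraticMap.polar_neg_left]
  module

/-- product of the reflections in two orthogonal vectors -/
theorem refl_refl (Q : QuadraticForm F V) {a b : V}
    (hab : QuadraticMap.polar (⇑Q) a b = 0) (z : V) :
    reflLin Q a (reflLin Q b z) =
      z - ((Q b)⁻¹ * QuadraticMap.polar (⇑Q) b z) • b -
        ((Q a)⁻¹ * QuadraticMap.polar (⇑Q) a z) • a := by
  rw [reflLin_apply Q a, reflLin_apply Q b, QuadraticMap.polar_sub_right,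
    QuadraticMap.polar_smul_right, hab]
  simp only [smul_eq_mul, mul_zero, sub_zero]

/-- pure ring algebra: conjugating by one "twisted" reflection -/
theorem alg_one {E : Type*} [Ring E] (x α T R : E)
    (hxα : x * α = -(α * x)) (hTα : T * α = α * T) (hTT : T * T = 1)
    (hxR : x * R = R * (T * x)) (hTR : T * R = R * T) :
    x * (R * α * R) = -((R * α * R) * x) := by
  have r1 : ∀ z, x * (R * z) = R * (T * (x * z)) := fun z => by
    rw [← mul_assoc, hxR, mul_assoc, mul_assoc]
  have r2 : ∀ z, x * (α * z) = -(α * (x * z)) := fun z => by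
    rw [← mul_assoc, hxα, neg_mul, mul_assoc]
  have r3 : ∀ z, T * (R * z) = R * (T * z) := fun z => by
    rw [← mul_assoc, hTR, mul_assoc]
  have r4 : ∀ z, T * (α * z) = α * (T * z) := fun z => by
    rw [← mul_assoc, hTα, mul_assoc]
  have r5 : ∀ z, T * (T * z) = z := fun z => by
    rw [← mul_assoc, hTT, one_mul]
  simp only [mul_assoc, r1, r2, r3, r4, r5, hxR, mul_neg]

/-- pure ring algebra: conjugating by two "twisted" reflections -/
theorem alg_two {E : Type*} [Ring E] (x α T R R' : E)
    (hxα : x * α = -(α * x)) (hTα : T * α = α * T) (hTT : T * T = 1)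
    (hxR : x * R = R * (T * x)) (hTR : T * R = R * T)
    (hxR' : x * R' = R' * (T * x)) (hTR' : T * R' = R' * T) :
    x * (R' * R * α * (R * R')) = -((R' * R * α * (R * R')) * x) := by
  have r1 : ∀ z, x * (R * z) = R * (T * (x * z)) := fun z => by
    rw [← mul_assoc, hxR, mul_assoc, mul_assoc]
  have r1' : ∀ z, x * (R' * z) = R' * (T * (x * z)) := fun z => by
    rw [← mul_assoc, hxR', mul_assoc, mul_assoc]
  have r2 : ∀ z, x * (α * z) = -(α * (x * z)) := fun z => by
    rw [← mul_assoc, hxα, neg_mul, mul_assoc]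
  have r3 : ∀ z, T * (R * z) = R * (T * z) := fun z => by
    rw [← mul_assoc, hTR, mul_assoc]
  have r3' : ∀ z, T * (R' * z) = R' * (T * z) := fun z => by
    rw [← mul_assoc, hTR', mul_assoc]
  have r4 : ∀ z, T * (α * z) = α * (T * z) := fun z => by
    rw [← mul_assoc, hTα, mul_assoc]
  have r5 : ∀ z, T * (T * z) = z := fun z => by
    rw [← mul_assoc, hTT, one_mul]
  simp only [mul_assoc, r1, r1', r2, r3, r3', r4, r5, hxR', mul_neg]

namespace XData

variable {Q : QuadraticForm F V} {x : Module.End F V}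

theorem nd' (h : XData Q x) (y : V) (hy : ∀ z, QuadraticMap.polar (⇑Q) y z = 0) : y = 0 :=
  h.nd.1 y hy

theorem polar_iso (h : XData Q x) (y z : V) :
    QuadraticMap.polar (⇑Q) (x y) (x z) = QuadraticMap.polar (⇑Q) y z := by
  unfold QuadraticMap.polar
  rw [← map_add, h.iso, h.iso, h.iso]

theorem polar_self' (Q : QuadraticForm F V) (y : V) :
    QuadraticMap.polar (⇑Q) y y = 2 * Q y := by
  rw [QuadraticMap.polar_self]
  simp

theorem polar_x_right (h : XData Q x) (y z : V) :
    QuadraticMap.polar (⇑Q) y (x z) = - QuadraticMap.polar (⇑Q) (x y) z := by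
  have h1 := h.polar_iso y (x z)
  rw [h.sq, QuadraticMap.polar_neg_right] at h1
  rw [← h1]

theorem polar_x_self (h : XData Q x) (y : V) : QuadraticMap.polar (⇑Q) y (x y) = 0 := by
  have h1 := h.polar_x_right y y
  rw [QuadraticMap.polar_comm (⇑Q) (x y) y] at h1
  have h2 : (2 : F) * QuadraticMap.polar (⇑Q) y (x y) = 0 := by linear_combination h1
  exact (mul_eq_zero.mp h2).resolve_left h.two

/-- `W ⊥ xW` and the form is nondegenerate on `W`. -/
def Good (Q : QuadraticForm F V) (x : Module.End F V) (W : Submodule F V) : Prop :=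
  (∀ w ∈ W, ∀ w' ∈ W, QuadraticMap.polar (⇑Q) w (x w') = 0) ∧
    (∀ w ∈ W, (∀ w' ∈ W, QuadraticMap.polar (⇑Q) w w' = 0) → w = 0)

theorem exists_perp [FiniteDimensional F V] (h : XData Q x) {W : Submodule F V}
    (hW : Good Q x W) (hU : W ⊔ W.map x ≠ ⊤) :
    ∃ v : V, Q v ≠ 0 ∧ (∀ w ∈ W, QuadraticMap.polar (⇑Q) v w = 0) ∧
      (∀ w ∈ W, QuadraticMap.polar (⇑Q) v (x w) = 0) := by
  classical
  set U : Submodule F V := W ⊔ W.map x with hUdef
  set U' : Submodule F V := LinearMap.BilinForm.orthogonal (QuadraticMap.polarBilin Q) U with hU'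
  have hmemU : ∀ y ∈ U, ∃ w₁ ∈ W, ∃ w₂ ∈ W, y = w₁ + x w₂ := by
    intro y hy
    obtain ⟨w₁, hw₁, z, hz, rfl⟩ := Submodule.mem_sup.mp hy
    obtain ⟨w₂, hw₂, rfl⟩ := Submodule.mem_map.mp hz
    exact ⟨w₁, hw₁, w₂, hw₂, rfl⟩
  have hperp : ∀ y ∈ U', ∀ u ∈ U, QuadraticMap.polar (⇑Q) u y = 0 := by
    intro y hy u hu
    exact LinearMap.BilinForm.mem_orthogonal_iff.mp hy u hu
  have hdisj : Disjoint U U' := by
    rw [Submodule.disjoint_def]
    intro y hyU hyU'
    obtain ⟨w₁, hw₁, w₂, hw₂, rfl⟩ := hmemU y hyU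
    have key : ∀ u ∈ U, QuadraticMap.polar (⇑Q) (w₁ + x w₂) u = 0 := fun u hu => by
      rw [QuadraticMap.polar_comm]
      exact hperp _ hyU' u hu
    have h1 : w₁ = 0 := by
      apply hW.2 w₁ hw₁
      intro w' hw'
      have h3 := key w' (Submodule.mem_sup_left hw')
      rw [QuadraticMap.polar_add_left] at h3
      have h0 : QuadraticMap.polar (⇑Q) (x w₂) w' = 0 := by
        rw [QuadraticMap.polar_comm]
        exact hW.1 w' hw' w₂ hw₂
      rw [h0, add_zero] at h3
      exact h3
    have h2 : w₂ = 0 := by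
      apply hW.2 w₂ hw₂
      intro w' hw'
      have h3 := key (x w') (Submodule.mem_sup_right (Submodule.mem_map_of_mem hw'))
      rw [QuadraticMap.polar_add_left, h.polar_iso, hW.1 w₁ hw₁ w' hw', zero_add] at h3
      exact h3
    rw [h1, h2]
    simp
  have hfr : Module.finrank F U' = Module.finrank F V - Module.finrank F U :=
    LinearMap.BilinForm.finrank_orthogonal h.nd U
  have hlt : Module.finrank F U < Module.finrank F V := Submodule.finrank_lt hU
  by_contra hcon
  push Not at hcon
  have hQ0 : ∀ v ∈ U', Q v = 0 := by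
    intro v hv
    by_contra hne
    obtain ⟨w, hw, hne'⟩ := hcon v hne (fun w hw => by
      rw [QuadraticMap.polar_comm]
      exact hperp v hv w (Submodule.mem_sup_left hw))
    apply hne'
    rw [QuadraticMap.polar_comm]
    exact hperp v hv (x w) (Submodule.mem_sup_right (Submodule.mem_map_of_mem hw))
  have htop : U ⊔ U' = ⊤ := Submodule.eq_top_of_disjoint U U' (by omega) hdisj
  have hU'bot : U' = ⊥ := by
    rw [eq_bot_iff]
    intro v hv
    rw [Submodule.mem_bot]
    apply h.nd' v
    intro z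
    have hz : z ∈ U ⊔ U' := by rw [htop]; trivial
    obtain ⟨u, hu, u', hu', rfl⟩ := Submodule.mem_sup.mp hz
    rw [QuadraticMap.polar_add_right]
    have e1 : QuadraticMap.polar (⇑Q) v u = 0 := by
      rw [QuadraticMap.polar_comm]
      exact hperp v hv u hu
    have e2 : QuadraticMap.polar (⇑Q) v u' = 0 := by
      unfold QuadraticMap.polar
      rw [hQ0 _ (U'.add_mem hv hu'), hQ0 v hv, hQ0 u' hu']
      ring
    rw [e1, e2, add_zero]
  rw [hU'bot] at hfr
  simp at hfr
  omega

theorem exists_good [FiniteDimensional F V] (h : XData Q x) :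
    ∀ (n : ℕ) (W : Submodule F V), Good Q x W →
      Module.finrank F V - Module.finrank F W = n →
      ∃ W' : Submodule F V, Good Q x W' ∧ W' ⊔ W'.map x = ⊤ := by
  intro n
  induction n using Nat.strong_induction_on with
  | _ n ih =>
    intro W hW hn
    by_cases hU : W ⊔ W.map x = ⊤
    · exact ⟨W, hW, hU⟩
    obtain ⟨v, hv, hvW, hvxW⟩ := h.exists_perp hW hU
    have hvv : QuadraticMap.polar (⇑Q) v v ≠ 0 := by
      rw [polar_self']
      exact mul_ne_zero h.two hv
    have hvnot : v ∉ W := fun hvm => hvv (hvW v hvm)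
    have hlt : W < W ⊔ F ∙ v := by
      refine lt_of_le_of_ne le_sup_left ?_
      intro heq
      apply hvnot
      rw [heq]
      exact Submodule.mem_sup_right (Submodule.mem_span_singleton_self v)
    have hfr := Submodule.finrank_lt_finrank_of_lt hlt
    have hle : Module.finrank F ↥(W ⊔ F ∙ v) ≤ Module.finrank F V := Submodule.finrank_le _
    have hmem : ∀ y ∈ W ⊔ F ∙ v, ∃ w ∈ W, ∃ c : F, y = w + c • v := by
      intro y hy
      obtain ⟨w, hw, z, hz, rfl⟩ := Submodule.mem_sup.mp hy
      obtain ⟨c, rfl⟩ := Submodule.mem_span_singleton.mp hz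
      exact ⟨w, hw, c, rfl⟩
    have hwxv : ∀ w ∈ W, QuadraticMap.polar (⇑Q) w (x v) = 0 := by
      intro w hw
      rw [h.polar_x_right, QuadraticMap.polar_comm, hvxW w hw, neg_zero]
    have hgood : Good Q x (W ⊔ F ∙ v) := by
      constructor
      · intro y hy z hz
        obtain ⟨w, hw, c, rfl⟩ := hmem y hy
        obtain ⟨w', hw', c', rfl⟩ := hmem z hz
        simp only [map_add, map_smul, QuadraticMap.polar_add_left, QuadraticMap.polar_add_right,
          QuadraticMap.polar_smul_left, QuadraticMap.polar_smul_right, smul_eq_mul]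
        rw [hW.1 w hw w' hw', hwxv w hw, hvxW w' hw', h.polar_x_self v]
        ring
      · intro y hy hyp
        obtain ⟨w, hw, c, rfl⟩ := hmem y hy
        have h1 := hyp v (Submodule.mem_sup_right (Submodule.mem_span_singleton_self v))
        rw [QuadraticMap.polar_add_left, QuadraticMap.polar_smul_left, smul_eq_mul,
          QuadraticMap.polar_comm (⇑Q) w v, hvW w hw, zero_add] at h1
        have hc : c = 0 := (mul_eq_zero.mp h1).resolve_right hvv
        subst hc
        have hw0 : w = 0 := by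
          apply hW.2 w hw
          intro w' hw'
          have h3 := hyp w' (Submodule.mem_sup_left hw')
          simpa using h3
        rw [hw0]
        simp
    exact ih (Module.finrank F V - Module.finrank F ↥(W ⊔ F ∙ v)) (by omega) _ hgood rfl

/-- `V = W ⊕ xW` orthogonally: a self-adjoint involution `σ` anticommuting with `x`. -/
theorem exists_sigma [FiniteDimensional F V] [Nontrivial V] (h : XData Q x) :
    ∃ (σ : Module.End F V) (v : V), (∀ y, σ (σ y) = y) ∧
      (∀ y z, QuadraticMap.polar (⇑Q) (σ y) z = QuadraticMap.polar (⇑Q) y (σ z)) ∧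
      (∀ y, σ (x y) = -x (σ y)) ∧ σ v = v ∧ Q v ≠ 0 := by
  have hbot : Good Q x (⊥ : Submodule F V) := by
    constructor
    · intro w hw
      rw [Submodule.mem_bot] at hw
      subst hw
      intro w' _
      simp
    · intro w hw _
      simpa using hw
  obtain ⟨W, hW, htop⟩ := h.exists_good _ ⊥ hbot rfl
  have hdisj : Disjoint W (W.map x) := by
    rw [Submodule.disjoint_def]
    intro y hy hy'
    obtain ⟨w₂, hw₂, rfl⟩ := Submodule.mem_map.mp hy'
    apply hW.2 _ hy
    intro w' hw'
    rw [QuadraticMap.polar_comm]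
    exact hW.1 w' hw' w₂ hw₂
  have hc : IsCompl W (W.map x) := ⟨hdisj, codisjoint_iff.mpr htop⟩
  set σ : Module.End F V := LinearMap.ofIsCompl hc W.subtype (-(W.map x).subtype) with hσ
  have hσ1 : ∀ w ∈ W, σ w = w := fun w hw => by
    have h1 := LinearMap.ofIsCompl_apply_left hc (φ := W.subtype) (ψ := -(W.map x).subtype)
      ⟨w, hw⟩
    simpa using h1
  have hσ2 : ∀ w ∈ W, σ (x w) = -x w := fun w hw => by
    have h1 := LinearMap.ofIsCompl_apply_right hc (φ := W.subtype) (ψ := -(W.map x).subtype)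
      ⟨x w, Submodule.mem_map_of_mem hw⟩
    simpa using h1
  have hdec : ∀ y : V, ∃ w ∈ W, ∃ w' ∈ W, y = w + x w' := by
    intro y
    have hy : y ∈ W ⊔ W.map x := by rw [htop]; trivial
    obtain ⟨w, hw, z, hz, rfl⟩ := Submodule.mem_sup.mp hy
    obtain ⟨w', hw', rfl⟩ := Submodule.mem_map.mp hz
    exact ⟨w, hw, w', hw', rfl⟩
  have hσval : ∀ w ∈ W, ∀ w' ∈ W, σ (w + x w') = w - x w' := by
    intro w hw w' hw'
    rw [map_add, hσ1 w hw, hσ2 w' hw']
    abel
  have hex : ∃ v ∈ W, Q v ≠ 0 := by
    by_contra hcon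
    push Not at hcon
    have hW0 : ∀ w ∈ W, w = 0 := by
      intro w hw
      apply hW.2 w hw
      intro w' hw'
      unfold QuadraticMap.polar
      rw [hcon _ (W.add_mem hw hw'), hcon w hw, hcon w' hw']
      ring
    obtain ⟨y, hy⟩ := exists_ne (0 : V)
    obtain ⟨w, hw, w', hw', rfl⟩ := hdec y
    apply hy
    rw [hW0 w hw, hW0 w' hw']
    simp
  obtain ⟨v, hvW, hv⟩ := hex
  refine ⟨σ, v, ?_, ?_, ?_, hσ1 v hvW, hv⟩
  · intro y
    obtain ⟨w, hw, w', hw', rfl⟩ := hdec y
    rw [hσval w hw w' hw', map_sub, hσ1 w hw, hσ2 w' hw']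
    abel
  · intro y z
    obtain ⟨w, hw, w', hw', rfl⟩ := hdec y
    obtain ⟨w₂, hw₂, w₂', hw₂', rfl⟩ := hdec z
    rw [hσval w hw w' hw', hσval w₂ hw₂ w₂' hw₂']
    simp only [QuadraticMap.polar_add_left, QuadraticMap.polar_add_right,
      QuadraticMap.polar_sub_left, QuadraticMap.polar_sub_right]
    have e1 := hW.1 w hw w₂' hw₂'
    have e2 : QuadraticMap.polar (⇑Q) (x w') w₂ = 0 := by
      rw [QuadraticMap.polar_comm]
      exact hW.1 w₂ hw₂ w' hw'
    rw [e1, e2]
    ring
  · intro y
    obtain ⟨w, hw, w', hw', rfl⟩ := hdec y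
    rw [hσval w hw w' hw', map_add, h.sq, map_sub, h.sq]
    have e : x w + -w' = (-w') + x w := by abel
    rw [e, hσval (-w') (W.neg_mem hw') w hw]
    abel

/-- For every `a` (a sum of two squares, as always over a finite field) there is a self-adjoint
`α` with `α² = a` anticommuting with `x`, and vectors `u`, `u'` with `Q u' = a * Q u ≠ 0` such
that the conjugates of `α` under `R_u`, `R_u' R_u`, `R_u'` still anticommute with `x`. -/
theorem exists_alpha [FiniteDimensional F V] [Nontrivial V] [Fintype F] (h : XData Q x)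
    (a : F) (ha : ¬ IsSquare a) :
    ∃ (α : Module.End F V) (u u' : V),
      α * α = a • (1 : Module.End F V) ∧
      (∀ y z, QuadraticMap.polar (⇑Q) (α y) z = QuadraticMap.polar (⇑Q) y (α z)) ∧
      Q u ≠ 0 ∧ Q u' ≠ 0 ∧ ¬ IsSquare (Q u * Q u') ∧
      x * α = -(α * x) ∧
      x * (reflLin Q u * α * reflLin Q u) = -((reflLin Q u * α * reflLin Q u) * x) ∧
      x * (reflLin Q u' * reflLin Q u * α * (reflLin Q u * reflLin Q u')) =
        -((reflLin Q u' * reflLin Q u * α * (reflLin Q u * reflLin Q u')) * x) ∧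
      x * (reflLin Q u' * α * reflLin Q u') = -((reflLin Q u' * α * reflLin Q u') * x) := by
  obtain ⟨σ, v, hσσ, hσadj, hσx, hσv, hv⟩ := h.exists_sigma
  obtain ⟨s, t, hst⟩ := Cfsg.Agent.Lib.Helper44.exists_sq_add_sq h.two a
  have ha0 : a ≠ 0 := fun h0 => ha (h0 ▸ ⟨0, by simp⟩)
  have hn : s ^ 2 + t ^ 2 ≠ 0 := by rw [hst]; exact ha0
  have hxx : x * x = -1 := LinearMap.ext fun y => by simp [h.sq]
  have hσQ : ∀ y, Q (σ y) = Q y := by
    intro y
    have h1 : QuadraticMap.polar (⇑Q) (σ y) (σ y) = QuadraticMap.polar (⇑Q) y y := by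
      rw [hσadj, hσσ]
    rw [polar_self', polar_self'] at h1
    exact mul_left_cancel₀ h.two h1
  have hQw : Q (x v) = Q v := h.iso v
  have hvw : QuadraticMap.polar (⇑Q) v (x v) = 0 := h.polar_x_self v
  have hxw : x (x v) = -v := h.sq v
  have hσw : σ (x v) = -x v := by rw [hσx, hσv]
  have hxu' : x (s • v + t • x v) = s • x v - t • v := by
    rw [map_add, map_smul, map_smul, hxw]
    module
  have hQu' : Q (s • v + t • x v) = a * Q v := by
    rw [QuadraticMap.map_add (⇑Q), QuadraticMap.map_smul, QuadraticMap.map_smul,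
      QuadraticMap.polar_smul_left, QuadraticMap.polar_smul_right, hvw, hQw, ← hst]
    simp only [smul_eq_mul]
    ring
  have hu'0 : Q (s • v + t • x v) ≠ 0 := by
    rw [hQu']
    exact mul_ne_zero ha0 hv
  have hQxu' : Q (x (s • v + t • x v)) = Q (s • v + t • x v) := h.iso _
  have horth' : QuadraticMap.polar (⇑Q) (s • v + t • x v) (x (s • v + t • x v)) = 0 :=
    h.polar_x_self _
  have hRR : reflLin Q v * reflLin Q v = 1 := reflLin_mul_self Q hv
  have hR₂R₂ : reflLin Q (x v) * reflLin Q (x v) = 1 :=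
    reflLin_mul_self Q (by rw [hQw]; exact hv)
  have hR'R' : reflLin Q (s • v + t • x v) * reflLin Q (s • v + t • x v) = 1 :=
    reflLin_mul_self Q hu'0
  have hcomm : reflLin Q v * reflLin Q (x v) = reflLin Q (x v) * reflLin Q v :=
    refl_comm Q hv hvw
  have hcomm' : reflLin Q (s • v + t • x v) * reflLin Q (x (s • v + t • x v)) =
      reflLin Q (x (s • v + t • x v)) * reflLin Q (s • v + t • x v) :=
    refl_comm Q hu'0 horth'
  have hE : reflLin Q (s • v + t • x v) * reflLin Q (x (s • v + t • x v)) =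
      reflLin Q v * reflLin Q (x v) := by
    refine LinearMap.ext fun z => ?_
    rw [Module.End.mul_apply, Module.End.mul_apply, refl_refl Q horth' z, refl_refl Q hvw z,
      hQxu', hQu', hQw, hxu']
    simp only [QuadraticMap.polar_add_left, QuadraticMap.polar_sub_left,
      QuadraticMap.polar_smul_left, smul_eq_mul]
    rw [← hst]
    match_scalars <;> field_simp <;> ring
  set R := reflLin Q v with hR
  set R₂ := reflLin Q (x v) with hR₂
  set R' := reflLin Q (s • v + t • x v) with hR'
  set R₂' := reflLin Q (x (s • v + t • x v)) with hR₂'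
  have hxR : x * R = R * (R * R₂ * x) := by
    calc x * R = R₂ * x := refl_conj Q x h.iso v
      _ = R * R * R₂ * x := by rw [hRR, one_mul]
      _ = R * (R * R₂ * x) := by noncomm_ring
  have hTR : R * R₂ * R = R * (R * R₂) := by rw [mul_assoc, ← hcomm]
  have hxR' : x * R' = R' * (R * R₂ * x) := by
    calc x * R' = R₂' * x := refl_conj Q x h.iso _
      _ = R' * R' * R₂' * x := by rw [hR'R', one_mul]
      _ = R' * (R' * R₂' * x) := by noncomm_ring
      _ = R' * (R * R₂ * x) := by rw [hE]
  have hTR' : R * R₂ * R' = R' * (R * R₂) := by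
    rw [← hE, mul_assoc, ← hcomm']
  have hTT : R * R₂ * (R * R₂) = 1 := by
    calc R * R₂ * (R * R₂) = R * (R₂ * R) * R₂ := by noncomm_ring
      _ = R * (R * R₂) * R₂ := by rw [hcomm]
      _ = (R * R) * (R₂ * R₂) := by noncomm_ring
      _ = 1 := by rw [hRR, hR₂R₂, one_mul]
  have hTx : R * R₂ * x = x * (R * R₂) := by
    have h1 : x * R = R₂ * x := refl_conj Q x h.iso v
    have h2 : x * R₂ = R * x := by
      have h3 := refl_conj Q x h.iso (x v)
      rw [hxw, refl_neg] at h3
      exact h3
    calc R * R₂ * x = R * (R₂ * x) := mul_assoc _ _ _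
      _ = R * (x * R) := by rw [h1]
      _ = (R * x) * R := (mul_assoc _ _ _).symm
      _ = (x * R₂) * R := by rw [h2]
      _ = x * (R₂ * R) := mul_assoc _ _ _
      _ = x * (R * R₂) := by rw [hcomm]
  have hTσ : R * R₂ * σ = σ * (R * R₂) := by
    have h1 : σ * R = R * σ := by
      have h3 := refl_conj Q σ hσQ v
      rw [hσv] at h3
      exact h3
    have h2 : σ * R₂ = R₂ * σ := by
      have h3 := refl_conj Q σ hσQ (x v)
      rw [hσw, refl_neg] at h3
      exact h3
    calc R * R₂ * σ = R * (R₂ * σ) := mul_assoc _ _ _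
      _ = R * (σ * R₂) := by rw [h2]
      _ = (R * σ) * R₂ := (mul_assoc _ _ _).symm
      _ = (σ * R) * R₂ := by rw [h1]
      _ = σ * (R * R₂) := mul_assoc _ _ _
  have hTα : R * R₂ * (s • σ + t • (x * σ)) = (s • σ + t • (x * σ)) * (R * R₂) := by
    rw [mul_add, add_mul, mul_smul_comm, mul_smul_comm, smul_mul_assoc, smul_mul_assoc,
      hTσ, ← mul_assoc (R * R₂) x σ, hTx, mul_assoc x (R * R₂) σ, hTσ, mul_assoc x σ (R * R₂)]
  have hxα : x * (s • σ + t • (x * σ)) = -((s • σ + t • (x * σ)) * x) := by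
    refine LinearMap.ext fun y => ?_
    simp only [Module.End.mul_apply, LinearMap.add_apply, LinearMap.smul_apply,
      LinearMap.neg_apply, map_add, map_smul, hσx, map_neg, h.sq]
    module
  have hαα : (s • σ + t • (x * σ)) * (s • σ + t • (x * σ)) = a • (1 : Module.End F V) := by
    refine LinearMap.ext fun y => ?_
    simp only [Module.End.mul_apply, LinearMap.add_apply, LinearMap.smul_apply, map_add,
      map_smul, hσx, hσσ, map_neg, h.sq, Module.End.one_apply]
    rw [← hst]
    module
  have hadj : ∀ y z, QuadraticMap.polar (⇑Q) ((s • σ + t • (x * σ)) y) z =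
      QuadraticMap.polar (⇑Q) y ((s • σ + t • (x * σ)) z) := by
    intro y z
    simp only [LinearMap.add_apply, LinearMap.smul_apply, Module.End.mul_apply,
      QuadraticMap.polar_add_left, QuadraticMap.polar_add_right, QuadraticMap.polar_smul_left,
      QuadraticMap.polar_smul_right, smul_eq_mul]
    rw [hσadj y z, h.polar_x_right y (σ z), ← hσadj (x y) z, hσx y,
      QuadraticMap.polar_neg_left]
    ring
  refine ⟨s • σ + t • (x * σ), v, s • v + t • x v, hαα, hadj, hv, hu'0, ?_, hxα,
    alg_one x _ (R * R₂) R hxα hTα hTT hxR hTR,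
    alg_two x _ (R * R₂) R R' hxα hTα hTT hxR hTR hxR' hTR',
    alg_one x _ (R * R₂) R' hxα hTα hTT hxR' hTR'⟩
  rintro ⟨m, hm⟩
  apply ha
  refine ⟨m / Q v, ?_⟩
  rw [hQu'] at hm
  field_simp
  linear_combination hm

end XData

end Generic

end Cfsg.Agent.Lib.Helper82.OFX
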