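import Mathlib
import Cfsg.Agent.Lib.Helper95.OFX.Defs
import Cfsg.Agent.Lib.Helper14.Forms
import Cfsg.Agent.Lib.Helper14.Isom
import Cfsg.Agent.Lib.Helper82.OFX.TwistGen

/-!
# S5977 (team project OFX), package [TWISTM]

Isometries `x` of the plus form with `x * x = -1` are `Twisted`.  The generic content is
`Cfsg.Agent.Lib.Helper82.OFX.XData.exists_alpha` (file `TwistGen`).
-/

set_option autoImplicit false

namespace Cfsg.Agent.Lib.Helper82.OFX

open Matrix Cfsg.Agent.Lib.Helper95.OFX Cfsg.Agent.Lib.Helper14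

universe u

/-- Matrix form of `XData.exists_alpha`, for any `QuadraticForm` on `ι → F`. -/
theorem exists_alpha_matrix {F : Type u} [Field F] [Fintype F] {ι : Type} [Fintype ι]
    [DecidableEq ι] [Nonempty ι] (Q : QuadraticForm F (ι → F)) (h2 : (2 : F) ≠ 0)
    (hnd : (QuadraticMap.polarBilin Q).Nondegenerate) (x : Matrix ι ι F)
    (hx : ∀ y, Q (x *ᵥ y) = Q y) (hxx : x * x = -1) (a : F) (ha : ¬ IsSquare a) :
    ∃ (α : Matrix ι ι F) (u u' : ι → F),
      α * α = a • (1 : Matrix ι ι F) ∧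
      (∀ y z, QuadraticMap.polar (⇑Q) (α *ᵥ y) z = QuadraticMap.polar (⇑Q) y (α *ᵥ z)) ∧
      Q u ≠ 0 ∧ Q u' ≠ 0 ∧ ¬ IsSquare (Q u * Q u') ∧
      x * α = -(α * x) ∧
      x * (Cfsg.reflectionMatrix (⇑Q) u * α * Cfsg.reflectionMatrix (⇑Q) u) =
        -((Cfsg.reflectionMatrix (⇑Q) u * α * Cfsg.reflectionMatrix (⇑Q) u) * x) ∧
      x * (Cfsg.reflectionMatrix (⇑Q) u' * Cfsg.reflectionMatrix (⇑Q) u * α *
          (Cfsg.reflectionMatrix (⇑Q) u * Cfsg.reflectionMatrix (⇑Q) u')) =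
        -((Cfsg.reflectionMatrix (⇑Q) u' * Cfsg.reflectionMatrix (⇑Q) u * α *
          (Cfsg.reflectionMatrix (⇑Q) u * Cfsg.reflectionMatrix (⇑Q) u')) * x) ∧
      x * (Cfsg.reflectionMatrix (⇑Q) u' * α * Cfsg.reflectionMatrix (⇑Q) u') =
        -((Cfsg.reflectionMatrix (⇑Q) u' * α * Cfsg.reflectionMatrix (⇑Q) u') * x) := by
  classical
  have hdata : XData Q (Matrix.toLinAlgEquiv' x) := by
    refine ⟨h2, hnd, ?_, ?_⟩
    · intro y
      rw [Matrix.toLinAlgEquiv'_apply]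
      exact hx y
    · intro y
      rw [Matrix.toLinAlgEquiv'_apply, Matrix.toLinAlgEquiv'_apply, Matrix.mulVec_mulVec, hxx,
        Matrix.neg_mulVec, Matrix.one_mulVec]
  obtain ⟨α, u, u', hαα, hadj, hu, hu', hns, h1, h2', h3, h4⟩ := hdata.exists_alpha a ha
  have hR : ∀ y : ι → F, Matrix.toLinAlgEquiv' (Cfsg.reflectionMatrix (⇑Q) y) = reflLin Q y := by
    intro y
    refine LinearMap.ext fun z => ?_
    rw [Matrix.toLinAlgEquiv'_apply, ← Matrix.mulVecLin_apply, reflectionMatrix_mulVecLin]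
  have hsymm : Matrix.toLinAlgEquiv' ((Matrix.toLinAlgEquiv' (R := F) (n := ι)).symm α) = α :=
    AlgEquiv.apply_symm_apply _ _
  refine ⟨(Matrix.toLinAlgEquiv' (R := F) (n := ι)).symm α, u, u', ?_, ?_, hu, hu', hns,
    ?_, ?_, ?_, ?_⟩
  · apply (Matrix.toLinAlgEquiv' (R := F) (n := ι)).injective
    rw [map_mul, hsymm, hαα, map_smul, map_one]
  · intro y z
    rw [← Matrix.toLinAlgEquiv'_apply, ← Matrix.toLinAlgEquiv'_apply, hsymm]
    exact hadj y z
  · apply (Matrix.toLinAlgEquiv' (R := F) (n := ι)).injective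
    rw [map_mul, map_neg, map_mul, hsymm]
    exact h1
  · apply (Matrix.toLinAlgEquiv' (R := F) (n := ι)).injective
    simp only [map_mul, map_neg, hsymm, hR]
    exact h2'
  · apply (Matrix.toLinAlgEquiv' (R := F) (n := ι)).injective
    simp only [map_mul, map_neg, hsymm, hR]
    exact h3
  · apply (Matrix.toLinAlgEquiv' (R := F) (n := ι)).injective
    simp only [map_mul, map_neg, hsymm, hR]
    exact h4

/-- [TWISTM] -/
theorem pkgTwistM : Cfsg.Agent.Lib.Helper95.OFX.PkgTwistM.{u} := by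
  intro F _ _ hodd d hd a ha x hx hxx
  classical
  have h2 : (2 : F) ≠ 0 := by
    apply Ring.two_ne_zero
    intro hc
    have h3 := FiniteField.even_card_of_char_two hc
    rw [Nat.odd_iff] at hodd
    omega
  have : Nonempty (OI d) := ⟨Sum.inl ⟨0, hd⟩⟩
  have hxiso := (mem_isometryGroup_iff _ x).mp hx
  have hQ : ⇑(plusQF d F) = Cfsg.quadFormPlus d F := plusQF_coe d F
  obtain ⟨α, u, u', hαα, hadj, hu, hu', hns, h1, h2', h3, h4⟩ :=
    exists_alpha_matrix (plusQF d F) h2 (plusQF_nondegenerate d F)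
      (x : Matrix (OI d) (OI d) F) (fun y => by rw [hQ]; exact hxiso y) hxx a ha
  rw [hQ] at hadj hu hu' hns h2' h3 h4
  exact ⟨α, u, u', ⟨hαα, hadj⟩, hu, hu', hns, Or.inr h1, Or.inr h2', Or.inr h3, Or.inr h4⟩

end Cfsg.Agent.Lib.Helper82.OFX
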